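import Mathlib
import Cfsg.Agent.FW.Mat
import Cfsg.Agent.FW.Arith

/-! Fong–Wong: the `SL₂(K)`-module `W = O(C(U₁))/U₁` and its four weight spaces. -/

set_option autoImplicit false

namespace Cfsg.Agent.FW

open Subgroup Cfsg.Agent.PLocal.SL2Nat Matrix
open scoped MatrixGroups

variable {K : Type*} [Field K] {Γ : Type*} [Group Γ] {V : Type*} [AddCommGroup V]
  [DistribMulAction Γ V]

/-- invariance under a subgroup -/
def Stab (T : Subgroup Γ) (A : AddSubgroup V) : Prop := ∀ τ ∈ T, ∀ v ∈ A, τ • v ∈ A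

/-- ascending series of fixed points of the root subgroup -/
def Zs (ι : SL(2, K) →* Γ) (V : Type*) [AddCommGroup V] [DistribMulAction Γ V] :
    ℕ → AddSubgroup V
  | 0 => ⊥
  | n + 1 =>
    { carrier := {v | ∀ s, ι (uu s) • v - v ∈ Zs ι V n}
      zero_mem' := fun s => by simp
      add_mem' := fun {a b} ha hb s => by
        rw [smul_add, add_sub_add_comm]; exact add_mem (ha s) (hb s)
      neg_mem' := fun {a} ha s => by
        rw [smul_neg, ← neg_sub', neg_mem_iff]; exact ha s }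

variable {ι : SL(2, K) →* Γ}

theorem mem_Zs {n : ℕ} {v : V} : v ∈ Zs ι V (n + 1) ↔ ∀ s, ι (uu s) • v - v ∈ Zs ι V n := Iff.rfl

theorem mem_Zs_one {v : V} : v ∈ Zs ι V 1 ↔ ∀ s, ι (uu s) • v = v :=
  forall_congr' fun _ => AddSubgroup.mem_bot.trans sub_eq_zero

theorem uu_smul_comm (s r : K) (v : V) : ι (uu s) • ι (uu r) • v = ι (uu r) • ι (uu s) • v := by
  rw [← mul_smul, ← mul_smul, ← map_mul, ← map_mul, ← uu_add, ← uu_add, add_comm]

theorem uu_smul_mem (n : ℕ) (r : K) {v : V} (hv : v ∈ Zs ι V n) : ι (uu r) • v ∈ Zs ι V n := by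
  induction n generalizing v with
  | zero => rw [AddSubgroup.mem_bot.1 hv, smul_zero]; exact zero_mem _
  | succ n ih => intro s; rw [uu_smul_comm, ← smul_sub]; exact ih (hv s)

theorem Zs_mono : Monotone (Zs ι V) := monotone_nat_of_le_succ fun n _ hv s =>
  sub_mem (uu_smul_mem n s hv) hv

theorem Zs_stab {T : Subgroup Γ} (hT : ∀ τ ∈ T, ∃ c, ∀ s, τ * ι (uu s) * τ⁻¹ = ι (uu (c * s)))
    (n : ℕ) : Stab T (Zs ι V n) := by
  induction n with
  | zero => intro τ _ v hv; rw [AddSubgroup.mem_bot.1 hv, smul_zero]; exact zero_mem _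
  | succ n ih =>
    intro τ hτ v hv s
    obtain ⟨c, hc⟩ := hT _ (inv_mem hτ)
    have := ih τ hτ _ (hv (c * s))
    rwa [← hc, smul_sub, ← mul_smul, inv_inv, mul_assoc, mul_inv_cancel_left, mul_smul] at this

theorem exists_Zs_top [Finite V] [Finite K] {p : ℕ} (hp : p.Prime) [CharP K p]
    (hV : ∀ v : V, p • v = 0) : ∃ n, Zs ι V n = ⊤ := by
  let N : K → AddMonoid.End V := fun s => DistribMulAction.toAddMonoidEnd Γ V (ι (uu s)) - 1
  have hN : ∀ s v, N s v = ι (uu s) • v - v := fun _ _ => rfl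
  have hp0 : (p : AddMonoid.End V) = 0 := AddMonoidHom.ext hV
  have hNp : ∀ s, N s ^ p = 0 := fun s => by
    obtain ⟨r, hr⟩ := (Commute.one_right (N s)).exists_add_pow_prime_eq hp
    rw [sub_add_cancel, ← map_pow, ← map_pow, uu_pow, CharP.cast_eq_zero, zero_mul, uu_zero,
      map_one, map_one, hp0] at hr
    simpa using hr
  obtain ⟨n, hn⟩ := (WellFoundedGT.monotone_chain_condition ⟨Zs ι V, Zs_mono⟩)
  refine ⟨n, by_contra fun h => ?_⟩
  obtain ⟨v, hv⟩ : ∃ v, v ∉ Zs ι V n := by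
    by_contra! hc; exact h (eq_top_iff.2 fun v _ => hc v)
  have hm : ∀ s k v, v ∈ Zs ι V n → (N s ^ k) v ∈ Zs ι V n := fun s k v hv => by
    induction k with
    | zero => exact hv
    | succ k ih => rw [pow_succ']; exact sub_mem (uu_smul_mem n s ih) ih
  have key : ∀ S : Finset K, ∃ v ∉ Zs ι V n, ∀ s ∈ S, N s v ∈ Zs ι V n := fun S => by
    classical
    induction S using Finset.induction_on with
    | empty => exact ⟨v, hv, by simp⟩
    | insert s S _ ih =>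
      obtain ⟨v, hv, hS⟩ := ih
      have hex : ∃ k, (N s ^ k) v ∈ Zs ι V n := ⟨p, by rw [hNp]; exact zero_mem _⟩
      obtain ⟨k, hk⟩ := Nat.exists_eq_succ_of_ne_zero (n := Nat.find hex)
        (fun e => hv (by have := Nat.find_spec hex; rwa [e] at this))
      refine ⟨(N s ^ k) v, Nat.find_min hex (by omega), fun r hr => ?_⟩
      rcases Finset.mem_insert.1 hr with rfl | hr
      · have := Nat.find_spec hex
        rwa [hk, pow_succ'] at this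
      · have hc : Commute (N r) (N s) := AddMonoidHom.ext fun v => by
          change N r (N s v) = N s (N r v)
          simp only [hN, smul_sub, uu_smul_comm r s]
          abel
        change (N r * N s ^ k) v ∈ _
        rw [(hc.pow_right k).eq]
        exact hm s k _ (hS r hr)
  have := Fintype.ofFinite K
  obtain ⟨v, hv, hS⟩ := key Finset.univ
  exact hv ((hn (n + 1) (Nat.le_succ n)).ge fun s => hS s (Finset.mem_univ s))

/-- A nonzero equivariant map `A × U → B`. -/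
def Link (ι : SL(2, K) →* Γ) (T : Subgroup Γ) (A B : AddSubgroup V) : Prop :=
  ∃ f : V →+ K →+ V, (∃ v ∈ A, ∃ s, f v s ≠ 0) ∧ (∀ v s, f v s ∈ B) ∧
    ∀ τ ∈ T, ∀ c, (∀ s, τ * ι (uu s) * τ⁻¹ = ι (uu (c * s))) →
      ∀ v ∈ A, ∀ s, f (τ • v) (c * s) = τ • f v s

theorem exists_link {I : Type*} [Fintype I] {T : Subgroup Γ} (C : I → AddSubgroup V)
    (hT : ∀ τ ∈ T, ∃ c, ∀ s, τ * ι (uu s) * τ⁻¹ = ι (uu (c * s))) (inv : ∀ i, Stab T (C i))
    (irr : ∀ i A, Stab T A → C i ≤ A ∨ C i ⊓ A = ⊥)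
    (dec : ∀ v : V, ∃ f : I → V, (∀ i, f i ∈ C i) ∧ v = ∑ i, f i)
    (sep : ∀ A, Stab T A → ∀ f : I → V, (∀ i, f i ∈ C i) → ∑ i, f i ∈ A → ∀ i, f i ∈ A)
    (top : ∃ n, Zs ι V n = ⊤) {i : I} (hi : ¬ C i ≤ Zs ι V 1) :
    ∃ k n, C i ≤ Zs ι V (n + 2) ∧ ¬ C i ≤ Zs ι V (n + 1) ∧ C k ≤ Zs ι V (n + 1) ∧
      ¬ C k ≤ Zs ι V n ∧ Link ι T (C i) (C k) := by
  classical
  choose P hP hP' using dec
  have uq : ∀ v (f : I → V), (∀ i, f i ∈ C i) → v = ∑ i, f i → P v = f := fun v f h1 h2 => by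
    ext i
    refine sub_eq_zero.1 (sep ⊥ (fun τ _ v hv => by simp [AddSubgroup.mem_bot.1 hv]) (P v - f)
      (fun i => sub_mem (hP v i) (h1 i)) ?_ i)
    simp only [Pi.sub_apply, Finset.sum_sub_distrib, ← h2, ← hP', sub_self, zero_mem]
  have hadd : ∀ a b, P (a + b) = P a + P b := fun a b =>
    uq _ _ (fun i => add_mem (hP a i) (hP b i))
      (by simp only [Pi.add_apply, Finset.sum_add_distrib, ← hP'])
  have hsm : ∀ τ ∈ T, ∀ v k, P (τ • v) k = τ • P v k := fun τ hτ v k =>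
    congrFun (uq _ (fun i => τ • P v i) (fun i => inv i τ hτ _ (hP v i))
      (by rw [← Finset.smul_sum, ← hP'])) k
  have hA : ∀ n v, v ∈ Zs ι V n → ∀ k, P v k ∈ Zs ι V n := fun n v hv =>
    sep _ (Zs_stab hT n) _ (hP v) (hP' v ▸ hv)
  have hex : ∃ n, C i ≤ Zs ι V (n + 2) :=
    top.imp fun n hn => le_top.trans (hn ▸ Zs_mono (Nat.le_add_right n 2))
  have h1 := Nat.find_spec hex
  have h2 : ¬ C i ≤ Zs ι V (Nat.find hex + 1) := by
    rcases e : Nat.find hex with _ | m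
    · exact hi
    · exact Nat.find_min hex (by omega)
  generalize Nat.find hex = n at h1 h2
  obtain ⟨v, hv, hv'⟩ := SetLike.not_le_iff_exists.1 h2
  obtain ⟨s, hs⟩ := not_forall.1 (mt mem_Zs.2 hv')
  obtain ⟨k, hk⟩ : ∃ k, P (ι (uu s) • v - v) k ∉ Zs ι V n := by
    by_contra! hc; exact hs (hP' (ι (uu s) • v - v) ▸ sum_mem fun k _ => hc k)
  have h3 : ¬ C k ≤ Zs ι V n := fun e => hk (e (hP _ k))
  have h4 := (irr k _ (Zs_stab hT n)).resolve_left h3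
  have h0 : P (ι (uu s) • v - v) k ≠ 0 := fun e => hk (e ▸ zero_mem _)
  refine ⟨k, n, h1, h2, (irr k _ (Zs_stab hT _)).resolve_right fun e => h0 ?_, h3, ?_⟩
  · exact (eq_bot_iff.1 e) ⟨hP _ k, hA _ _ (h1 hv s) k⟩
  refine ⟨AddMonoidHom.mk' (fun v => AddMonoidHom.mk'
    (fun s => P (ι (uu s) • P v i - P v i) k) fun s r => ?_) fun a b => ?_, ⟨v, hv, s, ?_⟩,
    fun v s => hP _ k, fun τ hτ c hc v _ s => ?_⟩
  · have h5 : P (ι (uu s) • (ι (uu r) • P v i - P v i) - (ι (uu r) • P v i - P v i)) k = 0 :=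
      (eq_bot_iff.1 h4) ⟨hP _ k, hA _ _ (h1 (hP v i) r s) k⟩
    rw [← add_zero (P _ k + P _ k), ← h5, ← Pi.add_apply, ← Pi.add_apply, ← hadd, ← hadd, uu_add,
      map_mul, mul_smul, smul_sub]
    congr 2; abel
  · ext s
    simp only [AddMonoidHom.mk'_apply, AddMonoidHom.add_apply]
    rw [hadd, Pi.add_apply, smul_add, add_sub_add_comm, hadd, Pi.add_apply]
  · have : P v i = v := by
      rw [uq v (Pi.single i v) (fun k => by
        by_cases e : k = i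
        · subst e; simpa
        · simp [e]) (by simp)]
      simp
    simpa only [AddMonoidHom.mk'_apply, this] using h0
  · simp only [AddMonoidHom.mk'_apply]
    rw [← hsm τ hτ, hsm τ hτ v, ← hc, smul_sub, mul_smul, mul_smul, inv_smul_smul]

theorem ll_eq (r : K) : ll r = nn 1 one_ne_zero * uu (-r) * (nn 1 one_ne_zero)⁻¹ := by
  rw [nn_mul_uu]; simp

theorem eq_zero_of_fix (h2 : ∀ v : V, v + v = 0 → v = 0) (hj : ∀ v : V, ι (-1) • v = -v) {v : V}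
    (hu : ∀ s, ι (uu s) • v = v) (hl : ∀ s, ι (ll s) • v = v) : v = 0 := by
  have : ∀ y, ι y • v = v := uu_ll_induction _ hu hl fun a b ha hb => by
    rw [map_mul, mul_smul, hb, ha]
  exact h2 v (add_eq_zero_iff_eq_neg.2 ((this _).symm.trans (hj v)))

/-- On a quadratic module a noncentral diagonal element has no fixed points on `C(U)`. -/
theorem quadratic (h2 : ∀ v : V, v + v = 0 → v = 0) (hj : ∀ v : V, ι (-1) • v = -v)
    (hq : Zs ι V 2 = ⊤) {l : K} (hl : l ≠ 0) (h1 : l ≠ 1) {a : V} (ha : a ∈ Zs ι V 1)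
    (hx : ι (hh l hl) • a = a) : a = 0 := by
  have hq' : ∀ (v : V) s r, ι (uu r) • (ι (uu s) • v - v) = ι (uu s) • v - v := fun v s =>
    mem_Zs_one.1 ((hq ▸ AddSubgroup.mem_top v : v ∈ Zs ι V 2) s)
  have hl' : ∀ (v : V) s r, ι (ll r) • (ι (ll s) • v - v) = ι (ll s) • v - v := fun v s r => by
    have := congrArg (ι (nn 1 one_ne_zero) • ·) (hq' ((ι (nn 1 one_ne_zero))⁻¹ • v) (-s) (-r))
    simpa only [ll_eq, map_mul, map_inv, mul_smul, smul_sub, smul_inv_smul, inv_smul_smul]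
      using this
  have key : ∀ v : V, (∀ r, ι (ll r) • v = v) → ∀ s (hs : s ≠ 0),
      ι (nn s hs) • v = ι (uu s) • v - v := fun v hv s hs => by
    obtain ⟨f, hf⟩ : ∃ f, f = ι (uu s) • v - v := ⟨_, rfl⟩
    obtain ⟨g, hg⟩ : ∃ g, g = ι (ll (-s⁻¹)) • f - f := ⟨_, rfl⟩
    have e : ι (nn s hs) • v = ι (uu s) • (v + g) + f := by
      rw [← uu_ll_uu, map_mul, map_mul, mul_smul, mul_smul, eq_add_of_sub_eq hf.symm, smul_add, hv,
        eq_add_of_sub_eq hg.symm, add_right_comm, add_comm g, smul_add, hf, hq']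
    have : v + g = 0 := eq_zero_of_fix h2 hj (fun r => by
      have e1 : ι (uu r) • ι (nn s hs) • v = ι (nn s hs) • v := by
        rw [← mul_smul, ← map_mul, uu_mul_nn, map_mul, mul_smul, hv]
      have e2 := hq' (v + g) s r
      rw [e, smul_add, hf, hq', add_left_inj] at e1
      rwa [smul_sub, e1, sub_right_inj] at e2) fun r => by rw [smul_add, hv, hg, hl']
    rw [e, this, smul_zero, zero_add, hf]
  obtain ⟨v, rfl⟩ : ∃ v, a = ι (nn 1 one_ne_zero) • v := ⟨_, (smul_inv_smul _ a).symm⟩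
  have hv : ∀ r, ι (ll r) • v = v := fun r => by
    have := mem_Zs_one.1 ha (-(1 ^ 2 * r))
    rwa [← mul_smul, ← map_mul, ← nn_mul_ll, map_mul, mul_smul, smul_left_cancel_iff] at this
  rw [← mul_smul, ← map_mul, hh_mul_nn, key v hv, key v hv, sub_left_inj, mul_one] at hx
  have h3 := key v hv (-1 + l) (by rw [neg_add_eq_sub]; exact sub_ne_zero.2 h1)
  rw [uu_add, map_mul, mul_smul, hx, ← mul_smul, ← map_mul, ← uu_add,
    neg_add_cancel, uu_zero, map_one, one_smul, sub_self, smul_eq_zero_iff_eq] at h3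
  rw [h3, smul_zero]

/-- An invariant subgroup modulo which a noncentral diagonal element is trivial is everything. -/
theorem eq_top_of_hh [Fintype K] [Finite V] (hK : Odd (Fintype.card K))
    (h2 : ∀ v : V, v + v = 0 → v = 0) (hj : ∀ v : V, ι (-1) • v = -v) {l : K} (hl : l ≠ 0)
    (h1 : l ^ 2 ≠ 1) (Y : AddSubgroup V) (hY : ∀ y, ∀ v ∈ Y, ι y • v ∈ Y)
    (hx : ∀ v, ι (hh l hl) • v - v ∈ Y) : Y = ⊤ := by
  let M : Subgroup SL(2, K) :=
    { carrier := {y | ∀ v, ι y • v - v ∈ Y}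
      one_mem' := fun v => by simp
      mul_mem' := fun {a b} ha hb v => by
        simpa [mul_smul] using add_mem (ha (ι b • v)) (hb v)
      inv_mem' := fun {a} ha v => by simpa using neg_mem (ha ((ι a)⁻¹ • v)) }
  have hM : M.Normal := ⟨fun a ha g v => by
    simpa [mul_smul, smul_sub] using hY g _ (ha ((ι g)⁻¹ • v))⟩
  have h4 : 4 ≤ Nat.card K := (Agent.K.three_or_four (Inv.two_ne_zero_of_odd hK)).resolve_left
    fun e => h1 (by
      have := FiniteField.pow_card_sub_one_eq_one l hl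
      rwa [← Nat.card_eq_fintype_card, e] at this)
  rcases normal_cases h4 M hM with e | e
  · have h5 : ∀ v, v + v ∈ Y := fun v => by
      have := neg_mem ((e ▸ mem_top _ : (-1 : SL(2, K)) ∈ M) v)
      rwa [hj, neg_sub, sub_neg_eq_add] at this
    have : Function.Injective fun v : V => v + v := fun a b e => sub_eq_zero.1 (h2 _ (by
      rw [sub_add_sub_comm]; exact sub_eq_zero.2 e))
    refine eq_top_iff.2 fun v _ => ?_
    obtain ⟨u, rfl⟩ := Finite.surjective_of_injective this v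
    exact h5 u
  · have := mem_center_iff.1 (e (hx : hh l hl ∈ M)) (uu 1)
    rw [hh_mul_uu, mul_left_inj] at this
    exact absurd (by simpa using (uu_injective this).symm) h1

/-- The image of `A` under the Weyl element. -/
def wj (ι : SL(2, K) →* Γ) (A : AddSubgroup V) : AddSubgroup V where
  carrier := {v | (ι (nn 1 one_ne_zero))⁻¹ • v ∈ A}
  zero_mem' := by simp
  add_mem' := fun ha hb => by simpa using add_mem ha hb
  neg_mem' := fun ha => by simpa using ha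

theorem mem_wj {A : AddSubgroup V} {v : V} : v ∈ wj ι A ↔ (ι (nn 1 one_ne_zero))⁻¹ • v ∈ A :=
  Iff.rfl

/-- The weight decomposition of the module. -/
structure Wt (ι : SL(2, K) →* Γ) (T : Subgroup Γ) (t : Γ) (l : K) (hl : l ≠ 0)
    (γ δ : AddSubgroup V) : Prop where
  h2 : ∀ v : V, v + v = 0 → v = 0
  hj : ∀ v : V, ι (-1) • v = -v
  hT : ∀ τ ∈ T, ∃ c, ∀ s, τ * ι (uu s) * τ⁻¹ = ι (uu (c * s))
  hw : ι (nn 1 one_ne_zero) ∈ normalizer (T : Set Γ)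
  ht : t ∈ T
  tt : t * t = 1
  tu : ∀ s, t * ι (uu s) * t⁻¹ = ι (uu (-s))
  tl : ∀ s, t * ι (ll s) * t⁻¹ = ι (ll (-s))
  h1 : l ^ 2 ≠ 1
  hx : ι (hh l hl) ∈ T
  iγ : Stab T γ
  iδ : Stab T δ
  rγ : ∀ A, Stab T A → γ ≤ A ∨ γ ⊓ A = ⊥
  rδ : ∀ A, Stab T A → δ ≤ A ∨ δ ⊓ A = ⊥
  tγ : ∀ v ∈ γ, t • v = v
  tδ : ∀ v ∈ δ, t • v = v
  dec : ∀ v : V, t • v = v → ∃ a ∈ γ, ∃ b ∈ δ, v = a + b
  xγ : ∀ v ∈ γ, ι (hh l hl) • v = v
  xδ : ∀ v ∈ δ, ι (hh l hl) • v = v → v = 0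

namespace Wt

variable {T : Subgroup Γ} {t : Γ} {l : K} {hl : l ≠ 0} {γ δ : AddSubgroup V}
  (h : Wt ι T t l hl γ δ)
include h

local notation "w" => ι (nn 1 one_ne_zero)
local notation "x" => ι (hh l hl)

theorem w_inv (v : V) : w⁻¹ • v = -(w • v) := by
  rw [← h.hj, ← mul_smul, ← map_mul, ← map_inv]
  congr 2
  refine sl_ext ?_ ?_ ?_ ?_ <;>
    simp [inv_apply₀₀, inv_apply₀₁, inv_apply₁₀, inv_apply₁₁, coe_nn]

theorem tw (v : V) : t • w⁻¹ • v = -(w⁻¹ • t • v) := by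
  have : t * w * t⁻¹ = w⁻¹ := by
    rw [← map_inv, nn_inv, ← uu_ll_uu, ← uu_ll_uu, map_mul, map_mul, map_mul, map_mul, ← conj_mul,
      ← conj_mul, h.tu, h.tl]
    simp
  rw [h.w_inv v, smul_neg, ← this, mul_smul, mul_smul, inv_smul_smul]

omit h in
theorem xw (v : V) : w⁻¹ • x • v = x⁻¹ • w⁻¹ • v := by
  rw [← mul_smul, ← mul_smul, ← _root_.mul_inv_rev, inv_mul_eq_iff_eq_mul.2]
  rw [eq_mul_inv_iff_mul_eq, ← map_mul, ← map_mul, nn_mul_hh, hh_mul_nn]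
  simp [hl]

theorem t_wj {A : AddSubgroup V} (hA : ∀ v ∈ A, t • v = v) {v : V} (hv : v ∈ wj ι A) :
    t • v = -v := by
  have := hA _ (mem_wj.1 hv)
  rwa [h.tw, neg_eq_iff_eq_neg, ← smul_neg, smul_left_cancel_iff] at this

theorem stab_wj {A : AddSubgroup V} (hA : Stab T A) : Stab T (wj ι A) := fun τ hτ v hv => by
  have := hA _ ((mem_normalizer_iff''.1 h.hw τ).1 hτ) _ (mem_wj.1 hv)
  rwa [mul_smul, mul_smul, smul_inv_smul] at this

theorem irr_wj {C : AddSubgroup V} (hC : ∀ A, Stab T A → C ≤ A ∨ C ⊓ A = ⊥) (A : AddSubgroup V)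
    (hA : Stab T A) : wj ι C ≤ A ∨ wj ι C ⊓ A = ⊥ := by
  refine (hC (A.comap (DistribSMul.toAddMonoidHom V w)) fun τ hτ v hv => ?_).imp
    (fun e v hv => by simpa using e hv) fun e => eq_bot_iff.2 fun v hv => ?_
  · have := hA _ ((mem_normalizer_iff.1 h.hw τ).1 hτ) _ hv
    simpa [mul_smul] using this
  · have : w⁻¹ • v = 0 := (eq_bot_iff.1 e) ⟨hv.1, by simpa using hv.2⟩
    exact (smul_eq_zero_iff_eq _).1 this

variable [Finite V]

theorem half {A : AddSubgroup V} {v : V} (hv : v + v ∈ A) : v ∈ A := by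
  have : Function.Injective fun v : A => v + v := fun a b e => Subtype.ext (sub_eq_zero.1 (h.h2 _ (by
    rw [sub_add_sub_comm]; exact sub_eq_zero.2 (congrArg Subtype.val e))))
  obtain ⟨u, e⟩ := Finite.surjective_of_injective this ⟨_, hv⟩
  rw [← sub_eq_zero.1 (h.h2 (u - v) (by
    rw [sub_add_sub_comm]; exact sub_eq_zero.2 (congrArg Subtype.val e)))]
  exact u.2

theorem dec4 (v : V) : ∃ a ∈ γ, ∃ b ∈ δ, ∃ c ∈ wj ι γ, ∃ d ∈ wj ι δ, v = a + b + c + d := by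
  have : Function.Injective fun v : V => v + v := fun a b e => sub_eq_zero.1 (h.h2 _ (by
    rw [sub_add_sub_comm]; exact sub_eq_zero.2 e))
  obtain ⟨u, rfl⟩ := Finite.surjective_of_injective this v
  have h3 : t • t • u = u := by rw [← mul_smul, h.tt, one_smul]
  obtain ⟨a, ha, b, hb, e⟩ := h.dec (u + t • u) (by rw [smul_add, h3, add_comm])
  obtain ⟨c, hc, d, hd, e'⟩ := h.dec (w⁻¹ • (u - t • u))
    (by rw [h.tw, smul_sub t, h3, ← smul_neg, neg_sub])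
  refine ⟨a, ha, b, hb, w • c, by simpa [mem_wj], w • d, by simpa [mem_wj], ?_⟩
  rw [add_assoc, ← smul_add, ← e', ← e, smul_inv_smul]
  simp

theorem eq_top [Fintype K] (hK : Odd (Fintype.card K)) (Y : AddSubgroup V)
    (hY : ∀ y, ∀ v ∈ Y, ι y • v ∈ Y) (hδ : δ ≤ Y) : Y = ⊤ := by
  refine eq_top_of_hh hK h.h2 h.hj hl h.h1 Y hY fun v => ?_
  obtain ⟨a, ha, b, hb, c, hc, d, hd, rfl⟩ := h.dec4 v
  have h3 : x • c = c := by
    rw [← smul_left_cancel_iff w⁻¹, xw, inv_smul_eq_iff, h.xγ _ (mem_wj.1 hc)]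
  have h4 : d ∈ Y := by simpa using hY (nn 1 one_ne_zero) _ (hδ hd)
  have := add_mem (sub_mem (hY (hh l hl) _ (hδ hb)) (hδ hb)) (sub_mem (hY (hh l hl) _ h4) h4)
  rw [smul_add, smul_add, smul_add, h.xγ _ ha, h3]
  convert this using 1
  abel

theorem link [Fintype K] (hK : Odd (Fintype.card K)) (hγ : γ ≠ ⊥) {p : ℕ} (hp : p.Prime)
    [CharP K p] (pδ : ∀ v ∈ δ, p • v = 0) :
    Link ι T δ (wj ι δ) ∨ Link ι T (wj ι δ) δ := by
  have hV : ∀ v : V, p • v = 0 := fun v =>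
    (h.eq_top hK (nsmulAddMonoidHom (α := V) p).ker (fun y v hv => by
      rw [AddMonoidHom.mem_ker, nsmulAddMonoidHom_apply] at hv ⊢
      rw [smul_comm, hv, smul_zero]) pδ).ge (AddSubgroup.mem_top v)
  have hδ : δ ≠ ⊥ := fun e => hγ (eq_bot_iff.2 (le_top.trans
    (h.eq_top hK ⊥ (fun y v hv => by simp [AddSubgroup.mem_bot.1 hv]) e.le).ge))
  have xγ' : ∀ v ∈ wj ι γ, x • v = v := fun c hc => by
    rw [← smul_left_cancel_iff w⁻¹, xw, inv_smul_eq_iff, h.xγ _ (mem_wj.1 hc)]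
  have xδ' : ∀ v ∈ wj ι δ, x • v = v → v = 0 := fun c hc e => by
    have : w⁻¹ • x • c = w⁻¹ • c := by rw [e]
    rw [xw, inv_smul_eq_iff] at this
    exact (smul_eq_zero_iff_eq _).1 (h.xδ _ hc this.symm)
  have sp : ∀ {A C : AddSubgroup V}, Stab T A → Stab T C → (C ≤ A ∨ C ⊓ A = ⊥) →
      (∀ v ∈ C, x • v = v → v = 0) → ∀ a b, x • a = a → b ∈ C → a + b ∈ A → a ∈ A ∧ b ∈ A := by
    intro A C hA hC hi hf a b ha hb hab
    have : b ∈ A := by
      refine hi.elim (fun e => e hb) fun e => ?_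
      have h3 := sub_mem (hA _ h.hx _ hab) hab
      rw [smul_add, ha, add_sub_add_left_eq_sub] at h3
      rw [hf b hb (sub_eq_zero.1 ((eq_bot_iff.1 e) ⟨C.sub_mem (hC _ h.hx _ hb) hb, h3⟩))]
      exact zero_mem _
    exact ⟨by simpa using sub_mem hab this, this⟩
  have lk := @exists_link K _ Γ _ V _ _ ι (Fin 4) _ T ![γ, δ, wj ι γ, wj ι δ] h.hT
    (by simp [Fin.forall_fin_succ, h.iγ, h.iδ, h.stab_wj])
    (by
      simp only [Fin.forall_fin_succ]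
      exact ⟨h.rγ, h.rδ, h.irr_wj h.rγ, h.irr_wj h.rδ, fun i => i.elim0⟩)
    (fun v => by
      obtain ⟨a, ha, b, hb, c, hc, d, hd, e⟩ := h.dec4 v
      exact ⟨![a, b, c, d], by simp [Fin.forall_fin_succ, ha, hb, hc, hd],
        by simpa [Fin.sum_univ_four] using e⟩)
    (fun A hA f hf hs => by
      rw [Fin.sum_univ_four] at hs
      have h3 := hA _ h.ht _ hs
      rw [smul_add, smul_add, smul_add, h.tγ _ (hf 0), h.tδ _ (hf 1), h.t_wj h.tγ (hf 2),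
        h.t_wj h.tδ (hf 3)] at h3
      have h4 : f 0 + f 1 ∈ A := h.half (by convert add_mem hs h3 using 1; abel)
      have h5 : f 2 + f 3 ∈ A := h.half (by convert sub_mem hs h3 using 1; abel)
      have h6 := sp hA h.iδ (h.rδ A hA) h.xδ _ _ (h.xγ _ (hf 0)) (hf 1) h4
      have h7 := sp hA (h.stab_wj h.iδ) (h.irr_wj h.rδ A hA) xδ' _ _ (xγ' _ (hf 2)) (hf 3) h5
      simp [Fin.forall_fin_succ, h6.1, h6.2, h7.1, h7.2])
    (exists_Zs_top hp hV)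
  have par : ∀ {A B : AddSubgroup V}, Link ι T A B →
      ((∀ v ∈ A, t • v = v) ∧ (∀ v ∈ B, t • v = v) ∨
        (∀ v ∈ A, t • v = -v) ∧ ∀ v ∈ B, t • v = -v) → False := by
    rintro A B ⟨f, ⟨v, hv, s, h0⟩, hB, hf⟩ hc
    have := hf t h.ht (-1) (by simpa using h.tu) v hv s
    refine h0 (h.h2 _ (add_eq_zero_iff_eq_neg.2 ?_))
    rcases hc with ⟨e1, e2⟩ | ⟨e1, e2⟩ <;> rw [e1 v hv, e2 _ (hB _ _)] at this
    · simpa using this.symm
    · simpa using this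
  have xx : ∀ {A B : AddSubgroup V}, Link ι T A B → (∀ v ∈ A, x • v = v) →
      (∀ v ∈ B, x • v = v) → False := by
    rintro A B ⟨f, ⟨v, hv, s, h0⟩, hB, hf⟩ e1 e2
    have := hf x h.hx (l ^ 2) (fun s => by
      rw [← map_mul, hh_mul_uu, map_mul, mul_inv_cancel_right]) v hv (s / (l ^ 2 - 1))
    rw [e1 v hv, e2 _ (hB _ _), ← sub_eq_zero, ← map_sub] at this
    refine h0 (Eq.trans (congrArg _ ?_) this)
    have := sub_ne_zero.2 h.h1
    field_simp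
  have nb : ∀ {A : AddSubgroup V}, A ≠ ⊥ → A ≤ Zs ι V 1 → wj ι A ≤ Zs ι V 1 → False :=
    fun {A} h0 h1 h2 => h0 (eq_bot_iff.2 fun v hv => (smul_eq_zero_iff_eq w).1
      (eq_zero_of_fix h.h2 h.hj (mem_Zs_one.1 (h2 (by simpa [mem_wj]))) fun s => by
        rw [ll_eq, map_mul, map_mul, map_inv, mul_smul, mul_smul, inv_smul_smul,
          mem_Zs_one.1 (h1 hv)]))
  have tγ' := fun v => h.t_wj h.tγ (v := v)
  have tδ' := fun v => h.t_wj h.tδ (v := v)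
  by_contra hn
  rw [not_or] at hn
  let St : AddSubgroup V → AddSubgroup V → Prop := fun A B => ¬ A ≤ Zs ι V 1 → ∃ n,
    A ≤ Zs ι V (n + 2) ∧ ¬ A ≤ Zs ι V (n + 1) ∧ B ≤ Zs ι V (n + 1) ∧ ¬ B ≤ Zs ι V n
  have s0 : St γ (wj ι δ) := fun e => by
    obtain ⟨k, n, a1, a2, a3, a4, a5⟩ := lk (i := 0) e
    fin_cases k
    exacts [(xx a5 h.xγ h.xγ).elim, (par a5 (Or.inl ⟨h.tγ, h.tδ⟩)).elim, (xx a5 h.xγ xγ').elim,
      ⟨n, a1, a2, a3, a4⟩]
  have s1 : St δ (wj ι γ) := fun e => by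
    obtain ⟨k, n, a1, a2, a3, a4, a5⟩ := lk (i := 1) e
    fin_cases k
    exacts [(par a5 (Or.inl ⟨h.tδ, h.tγ⟩)).elim, (par a5 (Or.inl ⟨h.tδ, h.tδ⟩)).elim,
      ⟨n, a1, a2, a3, a4⟩, (hn.1 a5).elim]
  have s2 : St (wj ι γ) δ := fun e => by
    obtain ⟨k, n, a1, a2, a3, a4, a5⟩ := lk (i := 2) e
    fin_cases k
    exacts [(xx a5 xγ' h.xγ).elim, ⟨n, a1, a2, a3, a4⟩, (xx a5 xγ' xγ').elim,
      (par a5 (Or.inr ⟨tγ', tδ'⟩)).elim]
  have s3 : St (wj ι δ) γ := fun e => by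
    obtain ⟨k, n, a1, a2, a3, a4, a5⟩ := lk (i := 3) e
    fin_cases k
    exacts [⟨n, a1, a2, a3, a4⟩, (hn.2 a5).elim, (par a5 (Or.inr ⟨tδ', tγ'⟩)).elim,
      (par a5 (Or.inr ⟨tδ', tδ'⟩)).elim]
  have pr : ∀ {A B}, St A B → St B A → A ≤ Zs ι V 1 ∨ B ≤ Zs ι V 1 := fun {A B} a b => by
    by_contra hc
    rw [not_or] at hc
    obtain ⟨n, -, a2, a3, -⟩ := a hc.1
    obtain ⟨m, -, b2, b3, -⟩ := b hc.2
    rcases le_total n m with e | e
    · exact b2 (a3.trans (Zs_mono (by omega)))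
    · exact a2 (b3.trans (Zs_mono (by omega)))
  have up : ∀ {A B}, St A B → B ≤ Zs ι V 1 → A ≤ Zs ι V 2 := fun {A B} a b => by
    by_cases e : A ≤ Zs ι V 1
    · exact e.trans (Zs_mono one_le_two)
    · obtain ⟨n, a1, -, -, a4⟩ := a e
      rcases n with _ | n
      · exact a1
      · exact (a4 (b.trans (Zs_mono (by omega)))).elim
  have fin : ∀ {A : AddSubgroup V}, A ≠ ⊥ → (∀ v ∈ A, x • v = v) → A ≤ Zs ι V 1 →
      γ ≤ Zs ι V 2 → δ ≤ Zs ι V 2 → wj ι γ ≤ Zs ι V 2 → wj ι δ ≤ Zs ι V 2 → False :=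
    fun h0 hx a0 a1 a2 a3 a4 => h0 (eq_bot_iff.2 fun v hv => quadratic h.h2 h.hj
      (eq_top_iff.2 fun v _ => by
        obtain ⟨a, ha, b, hb, c, hc, d, hd, rfl⟩ := h.dec4 v
        exact add_mem (add_mem (add_mem (a1 ha) (a2 hb)) (a3 hc)) (a4 hd)) hl
      (fun e => h.h1 (by rw [e, one_pow])) (a0 hv) (hx v hv))
  have m := Zs_mono (ι := ι) (V := V) one_le_two
  rcases pr s0 s3 with a | a <;> rcases pr s1 s2 with b | b
  · exact fin hγ h.xγ a (a.trans m) (b.trans m) (up s2 b) (up s3 a)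
  · exact nb hγ a b
  · exact nb hδ b a
  · refine fin (fun e => hγ (eq_bot_iff.2 fun v hv => (smul_eq_zero_iff_eq w).1
      ((eq_bot_iff.1 e) (by simpa [mem_wj])))) xγ' b (up s0 a) (up s1 b) (b.trans m) (a.trans m)

omit h [Finite V] in
theorem coord {A B : AddSubgroup V} (hL : Link ι T A B) (e₁ e₂ : K →+ V)
    (h₁ : ∀ v ∈ A, ∃ a, e₁ a = v) (h₁' : ∀ a, e₁ a ∈ A) (h₂ : ∀ v ∈ B, ∃ a, e₂ a = v)
    (i₂ : Function.Injective e₂) :
    ∃ f : K →+ K →+ K, f ≠ 0 ∧ ∀ z (hz : z ≠ 0) (a b : K), ι (hh z hz) ∈ T →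
      (∀ s, ι (hh z hz) • e₁ s = e₁ (a * s)) → (∀ s, ι (hh z hz) • e₂ s = e₂ (b * s)) →
      ∀ r s, f (a * r) (z ^ 2 * s) = b * f r s := by
  obtain ⟨f, ⟨v, hv, s, h0⟩, hB, hf⟩ := hL
  choose g hg using fun r s => h₂ _ (hB (e₁ r) s)
  refine ⟨AddMonoidHom.mk' (fun r => AddMonoidHom.mk' (g r) fun s s' => i₂ ?_) fun r r' => ?_,
    fun e => h0 ?_, fun z hz a b hT ha hb r s => i₂ ?_⟩
  · simp only [hg, map_add]
  · ext s
    exact i₂ (by simp [hg])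
  · obtain ⟨a, rfl⟩ := h₁ v hv
    rw [← hg, show g a s = 0 from DFunLike.congr_fun (DFunLike.congr_fun e a) s, map_zero]
  · simp only [AddMonoidHom.mk'_apply]
    rw [← hb, hg, hg, ← ha]
    exact hf _ hT _ (fun s => by rw [← map_mul, hh_mul_uu, map_mul, mul_inv_cancel_right]) _
      (h₁' r) s

theorem dvd_three [Fintype K] (hK : Odd (Fintype.card K)) (hγ : γ ≠ ⊥) (e : K →+ V)
    (he : Function.Injective e) (h₁ : ∀ v ∈ δ, ∃ a, e a = v) (h₂ : ∀ a, e a ∈ δ) {Q k N : ℕ}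
    (hQ : Fintype.card K = Q ^ k) (hN : N * (Q - 1) = Q ^ k - 1) (hNo : Odd N)
    (hz : ∀ z (h0 : z ≠ 0), z ^ N = 1 → ι (hh z h0) ∈ T)
    (hε : (∀ z (h0 : z ≠ 0), z ^ N = 1 → ∀ a, ι (hh z h0) • e a = e (z ^ 2 * a)) ∨
      ∀ z (h0 : z ≠ 0), z ^ N = 1 → ∀ a, ι (hh z h0) • e a = e (z⁻¹ ^ 2 * a)) : k ∣ 3 := by
  obtain ⟨p, hc, n, hp, -⟩ := FiniteField.card' K
  let e' : K →+ V := (DistribSMul.toAddMonoidHom V w).comp e
  have he' : Function.Injective e' := (MulAction.injective w).comp he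
  have h₁' : ∀ v ∈ wj ι δ, ∃ a, e' a = v := fun v hv =>
    (h₁ _ hv).imp fun a ha => by simp [e', ha]
  have h₂' : ∀ a, e' a ∈ wj ι δ := fun a => by simpa [e', mem_wj] using h₂ a
  have hw : ∀ z (h0 : z ≠ 0) a c, ι (hh z⁻¹ (inv_ne_zero h0)) • e a = e c →
      ι (hh z h0) • e' a = e' c := fun z h0 a c hc => by
    change _ • w • e a = w • e c
    rw [← hc, ← mul_smul, ← mul_smul, ← map_mul, ← map_mul, nn_mul_hh, hh_mul_nn]
    simp
  obtain ⟨m, rfl⟩ := hNo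
  have sq : ∀ y : K, y ^ (2 * m + 1) = 1 → ∃ z, z ≠ 0 ∧ z ^ (2 * m + 1) = 1 ∧ z ^ 2 = y :=
    fun y hy => ⟨y ^ (m + 1), pow_ne_zero _ (by rintro rfl; simp at hy),
      by rw [← pow_mul, mul_comm, pow_mul, hy, one_pow],
      by rw [← pow_mul, show (m + 1) * 2 = 2 * m + 1 + 1 by ring, pow_succ, hy, one_mul]⟩
  have hi : ∀ {z : K}, z ^ (2 * m + 1) = 1 → z⁻¹ ^ (2 * m + 1) = 1 := fun h => by
    rw [inv_pow, h, inv_one]
  rcases h.link hK hγ hp (fun v hv => by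
    obtain ⟨a, rfl⟩ := h₁ v hv
    rw [← map_nsmul, nsmul_eq_mul, CharP.cast_eq_zero, zero_mul, map_zero]) with hL | hL
  · obtain ⟨f, f0, hf⟩ := coord hL e e' h₁ h₂ h₁' he'
    refine FW.dvd_three hK hQ hN f f0 (hε.imp (fun hε y hy => ?_) fun hε y hy => ?_) <;>
      obtain ⟨z, h0, h1, rfl⟩ := sq y hy
    · exact hf z h0 _ _ (hz z h0 h1) (hε z h0 h1) fun s =>
        hw z h0 _ _ (inv_pow z 2 ▸ hε _ _ (hi h1) s)
    · exact hf z h0 _ _ (hz z h0 h1) (inv_pow z 2 ▸ hε z h0 h1) fun s =>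
        hw z h0 _ _ (by simpa using hε _ _ (hi h1) s)
  · obtain ⟨f, f0, hf⟩ := coord hL e' e h₁' h₂' h₁ he
    refine FW.dvd_three hK hQ hN f f0 (hε.symm.imp (fun hε y hy => ?_) fun hε y hy => ?_) <;>
      obtain ⟨z, h0, h1, rfl⟩ := sq y hy
    · exact hf z h0 _ _ (hz z h0 h1) (fun s => hw z h0 _ _ (by simpa using hε _ _ (hi h1) s))
        (inv_pow z 2 ▸ hε z h0 h1)
    · exact hf z h0 _ _ (hz z h0 h1) (fun s => hw z h0 _ _ (inv_pow z 2 ▸ hε _ _ (hi h1) s))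
        (hε z h0 h1)

end Wt

/-- The weight decomposition of an abelian normal subgroup `W` of an ambient group. -/
structure AWt (ι : SL(2, K) →* Γ) (W T : Subgroup Γ) (t : Γ) (l : K) (hl : l ≠ 0)
    (γ δ : Subgroup Γ) : Prop where
  comm : ∀ a ∈ W, ∀ b ∈ W, a * b = b * a
  odd : Odd (Nat.card W)
  hj : ∀ a ∈ W, ι (-1) * a * (ι (-1))⁻¹ = a⁻¹
  hT : ∀ τ ∈ T, ∃ c, ∀ s, τ * ι (uu s) * τ⁻¹ = ι (uu (c * s))
  hw : ι (nn 1 one_ne_zero) ∈ normalizer (T : Set Γ)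
  ht : t ∈ T
  tt : t * t = 1
  tu : ∀ s, t * ι (uu s) * t⁻¹ = ι (uu (-s))
  tl : ∀ s, t * ι (ll s) * t⁻¹ = ι (ll (-s))
  h1 : l ^ 2 ≠ 1
  hx : ι (hh l hl) ∈ T
  γW : γ ≤ W
  δW : δ ≤ W
  iγ : ∀ τ ∈ T, ∀ a ∈ γ, τ * a * τ⁻¹ ∈ γ
  iδ : ∀ τ ∈ T, ∀ a ∈ δ, τ * a * τ⁻¹ ∈ δ
  rγ : ∀ A ≤ γ, (∀ τ ∈ T, ∀ a ∈ A, τ * a * τ⁻¹ ∈ A) → A = ⊥ ∨ A = γ
  rδ : ∀ A ≤ δ, (∀ τ ∈ T, ∀ a ∈ A, τ * a * τ⁻¹ ∈ A) → A = ⊥ ∨ A = δ
  tγ : ∀ a ∈ γ, t * a * t⁻¹ = a
  tδ : ∀ a ∈ δ, t * a * t⁻¹ = a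
  dec : ∀ v ∈ W, t * v * t⁻¹ = v → ∃ a ∈ γ, ∃ b ∈ δ, v = a * b
  xγ : ∀ a ∈ γ, ι (hh l hl) * a * (ι (hh l hl))⁻¹ = a
  xδ : ∀ a ∈ δ, ι (hh l hl) * a * (ι (hh l hl))⁻¹ = a → a = 1

/-- conjugation action on an abelian normal subgroup, written additively -/
@[reducible] def cAct (W : Subgroup Γ) [W.Normal] : DistribMulAction Γ (Additive W) where
  smul g v := Additive.ofMul (MulAut.conjNormal g v.toMul)
  one_smul v := by change Additive.ofMul (MulAut.conjNormal 1 _) = v; simp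
  mul_smul a b v := by change Additive.ofMul (MulAut.conjNormal (a * b) _) = _; rw [map_mul]; rfl
  smul_zero _ := congrArg Additive.ofMul (map_one _)
  smul_add _ _ _ := congrArg Additive.ofMul (map_mul _ _ _)

namespace AWt

open scoped IsMulCommutative

variable {W T : Subgroup Γ} [W.Normal] {t : Γ} {l : K} {hl : l ≠ 0} {γ δ : Subgroup Γ}
  (h : AWt ι W T t l hl γ δ) [Finite Γ]
include h

omit [Finite Γ] in
theorem wt [IsMulCommutative W] : @Wt K _ Γ _ (Additive W) _ (cAct W) ι T t l hl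
    (γ.subgroupOf W).toAddSubgroup (δ.subgroupOf W).toAddSubgroup := by
  let := cAct W
  have irr : ∀ C : Subgroup Γ, C ≤ W → (∀ τ ∈ T, ∀ a ∈ C, τ * a * τ⁻¹ ∈ C) →
      (∀ A ≤ C, (∀ τ ∈ T, ∀ a ∈ A, τ * a * τ⁻¹ ∈ A) → A = ⊥ ∨ A = C) →
      ∀ A : AddSubgroup (Additive W), Stab T A → (C.subgroupOf W).toAddSubgroup ≤ A ∨
        (C.subgroupOf W).toAddSubgroup ⊓ A = ⊥ := fun C hC h1 h2 A hA => by
    refine (h2 (C ⊓ (A.toSubgroup').map W.subtype) inf_le_left ?_).symm.imp (fun e v hv => ?_)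
      fun e => eq_bot_iff.2 fun v hv => ?_
    · rintro τ hτ _ ⟨ha, a, ha', rfl⟩
      exact ⟨h1 τ hτ _ ha, _, hA τ hτ _ ha', rfl⟩
    · obtain ⟨a, ha, e'⟩ := (e.ge hv).2
      obtain rfl : a = v.toMul := Subtype.ext e'
      exact ha
    · exact Subtype.ext (e.le ⟨hv.1, _, hv.2, rfl⟩)
  exact
    { h2 := fun v hv => by
        have h1 : orderOf v.toMul ∣ 2 := orderOf_dvd_of_pow_eq_one (by rw [pow_two]; exact hv)
        exact orderOf_eq_one_iff.1 (Nat.eq_one_of_dvd_coprimes (Nat.coprime_two_right.2 h.odd)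
          (orderOf_dvd_natCard _) h1)
      hj := fun v => Subtype.ext (h.hj _ v.toMul.2)
      hT := h.hT
      hw := h.hw
      ht := h.ht
      tt := h.tt
      tu := h.tu
      tl := h.tl
      h1 := h.h1
      hx := h.hx
      iγ := fun τ hτ v hv => h.iγ τ hτ _ hv
      iδ := fun τ hτ v hv => h.iδ τ hτ _ hv
      rγ := irr γ h.γW h.iγ h.rγ
      rδ := irr δ h.δW h.iδ h.rδ
      tγ := fun v hv => Subtype.ext (h.tγ _ hv)
      tδ := fun v hv => Subtype.ext (h.tδ _ hv)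
      dec := fun v hv => by
        obtain ⟨a, ha, b, hb, e⟩ := h.dec _ v.toMul.2 (congrArg Subtype.val hv)
        exact ⟨.ofMul ⟨a, h.γW ha⟩, ha, .ofMul ⟨b, h.δW hb⟩, hb, Subtype.ext e⟩
      xγ := fun v hv => Subtype.ext (h.xγ _ hv)
      xδ := fun v hv e => Subtype.ext (h.xδ _ hv (congrArg Subtype.val e)) }

/-- A subgroup normalised by `SL₂(K)` and containing `δ` contains `W`. -/
theorem le_of [Fintype K] (hK : Odd (Fintype.card K)) (Y : Subgroup Γ)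
    (hY : ∀ y, ∀ a ∈ Y, ι y * a * (ι y)⁻¹ ∈ Y) (hδ : δ ≤ Y) : W ≤ Y := fun a ha => by
  have : IsMulCommutative W := ⟨⟨fun a b => Subtype.ext (h.comm _ a.2 _ b.2)⟩⟩
  let := cAct W
  exact (h.wt.eq_top hK (Y.subgroupOf W).toAddSubgroup (fun y v hv => hY y _ hv)
    fun _ hv => hδ hv).ge (AddSubgroup.mem_top (.ofMul ⟨a, ha⟩))

/-- If `|K| = Q ^ k` and the norm-one torus acts on `δ ≅ K` as on a root subgroup, `k ∣ 3`. -/
theorem dvd_three [Fintype K] (hK : Odd (Fintype.card K)) (hγ : γ ≠ ⊥) (e : K → Γ)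
    (hadd : ∀ a b, e (a + b) = e a * e b) (he : Function.Injective e)
    (h₁ : ∀ v ∈ δ, ∃ a, e a = v) (h₂ : ∀ a, e a ∈ δ) {Q k N : ℕ}
    (hQ : Fintype.card K = Q ^ k) (hN : N * (Q - 1) = Q ^ k - 1) (hNo : Odd N)
    (hz : ∀ z (h0 : z ≠ 0), z ^ N = 1 → ι (hh z h0) ∈ T)
    (hε : (∀ z (h0 : z ≠ 0), z ^ N = 1 → ∀ a,
        ι (hh z h0) * e a * (ι (hh z h0))⁻¹ = e (z ^ 2 * a)) ∨
      ∀ z (h0 : z ≠ 0), z ^ N = 1 → ∀ a,
        ι (hh z h0) * e a * (ι (hh z h0))⁻¹ = e (z⁻¹ ^ 2 * a)) : k ∣ 3 := by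
  have : IsMulCommutative W := ⟨⟨fun a b => Subtype.ext (h.comm _ a.2 _ b.2)⟩⟩
  let := cAct W
  refine h.wt.dvd_three hK (fun e => hγ (eq_bot_iff.2 fun a ha => ?_))
    (AddMonoidHom.mk' (fun a => .ofMul ⟨e a, h.δW (h₂ a)⟩) fun a b => Subtype.ext (hadd a b))
    (fun a b e => he (congrArg Subtype.val e))
    (fun v hv => (h₁ _ hv).imp fun _ e => Subtype.ext e) h₂ hQ hN hNo hz
    (hε.imp (fun h z h0 h1 a => Subtype.ext (h z h0 h1 a))
      fun h z h0 h1 a => Subtype.ext (h z h0 h1 a))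
  exact congrArg Subtype.val (e.le (x := .ofMul ⟨a, h.γW ha⟩) ha)

end AWt

end Cfsg.Agent.FW
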